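import Cfsg.Agent.H992.MU.Braid

/-!
# The exact braid relation of length six of the `μ`-elements (helper40, continuation of `H992/MU/Braid`)
-/

set_option autoImplicit false
set_option linter.unusedSectionVars false

namespace Cfsg.Agent.H40.MU

open CoxeterSystem Cfsg.Agent.ChevalleyStructure.CoxeterGeom Cfsg.Agent.Tits.Roots Cfsg.Agent.Tits.Core
  Cfsg.Agent.Tits.Exchange Cfsg.Agent.Nodes.Reps Cfsg.Agent.Nodes.BNOf Cfsg.Agent.Nodes.OppDec
  Cfsg.Agent.Nodes.MuSq Cfsg.Agent.H992.MU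
open scoped commutatorElement

variable {I W Y : Type*} [Fintype I] [DecidableEq I] [Group W] [Group Y] {M : CoxeterMatrix I}
  {cs : CoxeterSystem M W} {A : I → I → ℤ} {h : IsCartan M A} {p : ℕ} {T : Subgroup Y} {n : I → Y}
  {X : (I → ℤ) → Subgroup Y}

/-- group theory of the six elements -/
theorem six_of {m N m2 m3 m4 m5 m6 : Y} (h2 : m2 = m⁻¹ * N * m) (h3 : m3 = m2⁻¹ * m * m2) (h4 : m4 = m3⁻¹ * m2 * m3)
    (h5 : m5 = m4⁻¹ * m3 * m4) (h6 : m6 = m5⁻¹ * m4 * m5) (h : m6 = N) :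
    m * N * m * N * m * N = N * m * N * m * N * m := by
  obtain ⟨P, hP⟩ : ∃ P, P = N * m := ⟨_, rfl⟩
  have e1 : m * m2 = P := by rw [h2, hP]; group
  have e2 : m2 * m3 = P := by rw [← e1, h3]; group
  have e3 : m3 * m4 = P := by rw [← e2, h4]; group
  have e4 : m4 * m5 = P := by rw [← e3, h5]; group
  have e5 : m5 * N = P := by rw [← e4, ← h, h6]; group
  have f5 : m5 = P * N⁻¹ := by rw [← e5]; group
  have f4 : m4 = P * N * P⁻¹ := by
    calc m4 = (m4 * m5) * m5⁻¹ := by group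
      _ = _ := by rw [e4, f5]; group
  have f3 : m3 = P * P * N⁻¹ * P⁻¹ := by
    calc m3 = (m3 * m4) * m4⁻¹ := by group
      _ = _ := by rw [e3, f4]; group
  have f2 : m2 = P * P * N * P⁻¹ * P⁻¹ := by
    calc m2 = (m2 * m3) * m3⁻¹ := by group
      _ = _ := by rw [e2, f3]; group
  have f1 : m = P * P * P * N⁻¹ * P⁻¹ * P⁻¹ := by
    calc m = (m * m2) * m2⁻¹ := by group
      _ = P * (P * P * N * P⁻¹ * P⁻¹)⁻¹ := by rw [e1, f2]
      _ = _ := by simp only [mul_inv_rev, inv_inv, mul_assoc]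
  have f0 : m = N⁻¹ * P := by rw [hP]; group
  have g1 : N⁻¹ * (P * P * P) = P * P * P * N⁻¹ := by
    calc N⁻¹ * (P * P * P) = (N⁻¹ * P) * P * P := by group
      _ = m * P * P := by rw [← f0]
      _ = _ := by rw [f1]; group
  calc m * N * m * N * m * N = N⁻¹ * (P * P * P) * N := by rw [hP]; group
    _ = N * m * N * m * N * m := by rw [g1, hP]; group

variable (R : RGD cs h p T n X)

include R

/-- separation of the root groups made positive and negative by `w⁻¹` -/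
theorem sep2 [Finite W] {P N : Set (I → ℤ)} (w : W) (hP : ∀ z ∈ P, IsRoot cs h z ∧ 0 ≤ rep cs h w⁻¹ z)
    (hN : ∀ z ∈ N, IsRoot cs h z ∧ rep cs h w⁻¹ z ≤ 0) {v : Y} (h1 : v ∈ RGD.Sup X P) (h2 : v ∈ RGD.Sup X N) :
    v = 1 := by
  obtain ⟨g, hg⟩ := exists_rp cs R.nsys w⁻¹
  have k1 : g * v * g⁻¹ ∈ RGD.B cs h T X := by
    have h3 : g * v * g⁻¹ ∈ cj g (RGD.Sup X P) := conj_mem_cj.2 h1
    rw [RGD.cj_Sup] at h3
    refine (iSup_le ?_ : _ ≤ RGD.B cs h T X) h3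
    rintro ⟨z, hz⟩
    rw [R.conj_rp hg (hP z hz).1]
    exact RGD.X_le_B ((hP z hz).1.act _) (hP z hz).2
  have k2 : g * v * g⁻¹ ∈ UN cs h X := by
    have h3 : g * v * g⁻¹ ∈ cj g (RGD.Sup X N) := conj_mem_cj.2 h2
    rw [RGD.cj_Sup] at h3
    refine (iSup_le ?_ : _ ≤ UN cs h X) h3
    rintro ⟨z, hz⟩
    rw [R.conj_rp hg (hN z hz).1]
    exact X_le_UN ((hN z hz).1.act _) (hN z hz).2
  have h3 := eq_one_of_mem_UN_of_mem_B R k2 k1
  have e : v = g⁻¹ * (g * v * g⁻¹) * g := by group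
  rw [e, h3]; group

/-- the state before a step -/
def St (w : W) (i j : I) (a c m d f N x y : Y) : Prop :=
  Mu R w i a c m ∧ Mu R w j d f N ∧ x ∈ X (rep cs h (w * cs.simple i) (sr j)) ∧ y ∈ RGD.Sup X (S' cs h w i j) ∧
    a⁻¹ * d * a = x * y * d

/-- one step -/
theorem St.next [Finite W] {w : W} {i j : I} (hij : i ≠ j) (hM : M i j ≠ 2) {a c m d f N x y : Y}
    (H : St R w i j a c m d f N x y) : ∃ x' y' f', y * d = x' * y' ∧
      St R (w * cs.simple i) j i x (m⁻¹ * f * m) (m⁻¹ * N * m) c f' m x' y' := by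
  obtain ⟨H1, H2, hx, hy, e⟩ := H
  obtain ⟨-, h2, h3, c', h4⟩ := step' R hij hM w H1 H2 hx hy e
  have hM' : M j i ≠ 2 := by rw [M.symmetric]; exact hM
  have h5 : y * d ∈ RGD.Sup X (S cs h (w * cs.simple i) j i) :=
    mul_mem (RGD.Sup_mono (S'_le_next hij hM w) hy) (RGD.le_Sup (mem_next hij hM w) H2.1)
  obtain ⟨x', hx', y', hy', e'⟩ := exists_decomp R hij.symm hM' (w * cs.simple i) h5
  exact ⟨x', y', c', e', h3, h4, hx', hy', by rw [h2, e']⟩

section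

variable [Finite W] {i j : I} (hij : i ≠ j) {a c m d f N : Y} (H : Mu R 1 i a c m) (H' : Mu R 1 j d f N)

include hij H H'

theorem braid6 (hM : M i j = 6) : m * N * m * N * m * N = N * m * N * m * N * m := by
  obtain ⟨k, l, hk, hl, hkl, hk0, hl0⟩ : ∃ k l : ℤ, k = -A i j ∧ l = -A j i ∧ k * l = 3 ∧ 0 < k ∧ 0 < l := by
    rcases h.rel i j hij with h1 | h1 | h1 | h1
    · omega
    · omega
    · omega
    · rcases h1.2 with ⟨h2, h3⟩ | ⟨h2, h3⟩
      · exact ⟨1, 3, by rw [h2]; rfl, by rw [h3]; rfl, by norm_num, by norm_num, by norm_num⟩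
      · exact ⟨3, 1, by rw [h2]; rfl, by rw [h3]; rfl, by norm_num, by norm_num, by norm_num⟩
  have hM2 : M i j ≠ 2 := by omega
  have hM2' : M j i ≠ 2 := by rw [M.symmetric]; omega
  have eij : rep cs h (cs.simple i) (sr j) = sr j + k • sr i := by rw [si_sj h, hk]
  have eji : rep cs h (cs.simple j) (sr i) = sr i + l • sr j := by rw [si_sj h, hl]
  -- coordinates
  have vi : ∀ a b : ℤ, rep cs h (cs.simple i) (a • sr i + b • sr j) = (k * b - a) • sr i + b • sr j := by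
    intro a b
    rw [map_add, map_smul, map_smul, rep_simple_sr, eij]
    funext z
    simp only [Pi.add_apply, Pi.smul_apply, smul_eq_mul, Pi.neg_apply]
    ring
  have vj : ∀ a b : ℤ, rep cs h (cs.simple j) (a • sr i + b • sr j) = a • sr i + (l * a - b) • sr j := by
    intro a b
    rw [map_add, map_smul, map_smul, rep_simple_sr, eji]
    funext z
    simp only [Pi.add_apply, Pi.smul_apply, smul_eq_mul, Pi.neg_apply]
    ring
  have ei : (sr i : I → ℤ) = (1 : ℤ) • sr i + (0 : ℤ) • sr j := by rw [one_smul, zero_smul, add_zero]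
  have ej : (sr j : I → ℤ) = (0 : ℤ) • sr i + (1 : ℤ) • sr j := by rw [one_smul, zero_smul, zero_add]
  have b2 : rep cs h ((1 : W) * cs.simple i) (sr j) = k • sr i + (1 : ℤ) • sr j := by
    rw [one_mul, ej, vi]
    congr 2 <;> ring
  have b3 : rep cs h ((1 : W) * cs.simple i * cs.simple j) (sr i) = (2 : ℤ) • sr i + l • sr j := by
    rw [one_mul, rep_mul_apply, ei, vj, vi]
    congr 2
    · linear_combination hkl
    · ring
  have b4 : rep cs h ((1 : W) * cs.simple i * cs.simple j * cs.simple i) (sr j) = k • sr i + (2 : ℤ) • sr j := by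
    rw [one_mul, rep_mul_apply, rep_mul_apply, ej, vi, vj, vi]
    congr 2
    · linear_combination k * hkl
    · linear_combination hkl
  have b5 : rep cs h ((1 : W) * cs.simple i * cs.simple j * cs.simple i * cs.simple j) (sr i) =
      (1 : ℤ) • sr i + l • sr j := by
    rw [one_mul, rep_mul_apply, rep_mul_apply, rep_mul_apply, ei, vj, vi, vj, vi]
    congr 2
    · linear_combination (k * l) * hkl
    · linear_combination l * hkl
  have b6 : rep cs h ((1 : W) * cs.simple i * cs.simple j * cs.simple i * cs.simple j * cs.simple i) (sr j) = sr j := by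
    rw [one_mul, rep_mul_apply, rep_mul_apply, rep_mul_apply, rep_mul_apply, ej, vi, vj, vi, vj, vi]
    congr 2
    · linear_combination (k * (k * l - 1)) * hkl
    · linear_combination (k * l) * hkl
  -- the inverse of `w₆`
  obtain ⟨w6, hw6⟩ : ∃ w6 : W, w6 = 1 * cs.simple i * cs.simple j * cs.simple i * cs.simple j * cs.simple i := ⟨_, rfl⟩
  have v6 : ∀ a b : ℤ, rep cs h w6⁻¹ (a • sr i + b • sr j) = (-a) • sr i + (b - l * a) • sr j := by
    intro a b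
    have e1 : w6⁻¹ = cs.simple i * cs.simple j * cs.simple i * cs.simple j * cs.simple i := by
      rw [hw6, one_mul]
      simp only [mul_inv_rev, cs.inv_simple, mul_assoc]
    rw [e1, rep_mul_apply, rep_mul_apply, rep_mul_apply, rep_mul_apply, vi, vj, vi, vj, vi]
    congr 2
    · linear_combination (k * (k * l - 1) * b - k * l * a) * hkl
    · linear_combination (k * l * b - l * a) * hkl
  have v7 : ∀ a b : ℤ, rep cs h (w6 * cs.simple j)⁻¹ (a • sr i + b • sr j) = (-a) • sr i + (-b) • sr j := by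
    intro a b
    rw [mul_inv_rev, cs.inv_simple, rep_mul_apply, v6, vj]
    congr 2
    ring
  obtain ⟨x2, hx2, y2, hy2, e1⟩ := start R hij H H' hM2
  have S1 : St R 1 i j a c m d f N x2 y2 := ⟨H, H', hx2, hy2, e1⟩
  obtain ⟨x3, y3, f2, q2, S2⟩ := S1.next R hij hM2
  obtain ⟨x4, y4, f3, q3, S3⟩ := S2.next R hij.symm hM2'
  obtain ⟨x5, y5, f4, q4, S4⟩ := S3.next R hij hM2
  obtain ⟨x6, y6, f5, q5, S5⟩ := S4.next R hij.symm hM2'
  obtain ⟨x7, y7, f6, q6, S6⟩ := S5.next R hij hM2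
  have hx6 : x6 ∈ X (sr j) := by rw [← b6]; exact S5.2.2.1
  have hd : d ∈ X (sr j) := by have := H'.1; rwa [map_one, Module.End.one_apply] at this
  -- the negative side : `S (1, i, j)`
  have hNeg : ∀ z ∈ S cs h 1 i j, IsRoot cs h z ∧ rep cs h w6⁻¹ z ≤ 0 := by
    rintro z ⟨hz, m', a', b', hm, ha, hb, e⟩
    refine ⟨hz, ?_⟩
    rw [map_one, Module.End.one_apply, Module.End.one_apply] at e
    have e2 := congrArg (rep cs h w6⁻¹) e
    rw [map_smul, v6] at e2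
    have e3 := congrFun e2 i
    simp only [Pi.add_apply, Pi.smul_apply, smul_eq_mul, sr_self, sr_ne hij] at e3
    rcases (hz.act w6⁻¹).pos_or_neg with h0 | h0
    · exfalso
      have h3 : 0 ≤ rep cs h w6⁻¹ z i := h0 i
      nlinarith
    · exact h0
  -- the positive side
  obtain ⟨Q, hQ⟩ : ∃ Q : Set (I → ℤ), Q = {z | IsRoot cs h z ∧ 0 ≤ rep cs h w6⁻¹ z ∧
    0 ≤ rep cs h (w6 * cs.simple j)⁻¹ z} := ⟨_, rfl⟩
  have hPos : ∀ z, IsRoot cs h z → ∀ m' a' b' : ℤ, 0 < m' → a' < 0 → m' • z = a' • sr i + b' • sr j → z ∈ Q := by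
    intro z hz m' a' b' hm ha e
    rw [hQ]
    refine ⟨hz, ?_, ?_⟩
    · have e2 := congrArg (rep cs h w6⁻¹) e
      rw [map_smul, v6] at e2
      have e3 := congrFun e2 i
      simp only [Pi.add_apply, Pi.smul_apply, smul_eq_mul, sr_self, sr_ne hij] at e3
      rcases (hz.act w6⁻¹).pos_or_neg with h0 | h0
      · exact h0
      · exfalso
        have h3 : rep cs h w6⁻¹ z i ≤ 0 := h0 i
        nlinarith
    · have e2 := congrArg (rep cs h (w6 * cs.simple j)⁻¹) e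
      rw [map_smul, v7] at e2
      have e3 := congrFun e2 i
      simp only [Pi.add_apply, Pi.smul_apply, smul_eq_mul, sr_self, sr_ne hij] at e3
      rcases (hz.act (w6 * cs.simple j)⁻¹).pos_or_neg with h0 | h0
      · exact h0
      · exfalso
        have h3 : rep cs h (w6 * cs.simple j)⁻¹ z i ≤ 0 := h0 i
        nlinarith
  have k3 : x3 ∈ RGD.Sup X (S cs h 1 i j) := by
    refine RGD.le_Sup ?_ S2.2.2.1
    refine ⟨⟨_, i, rfl⟩, 1, 2, l, one_pos, two_pos, hl0, ?_⟩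
    rw [b3, one_smul, map_one, Module.End.one_apply, Module.End.one_apply]
  have k4 : x4 ∈ RGD.Sup X (S cs h 1 i j) := by
    refine RGD.le_Sup ?_ S3.2.2.1
    refine ⟨⟨_, j, rfl⟩, 1, k, 2, one_pos, hk0, two_pos, ?_⟩
    rw [b4, one_smul, map_one, Module.End.one_apply, Module.End.one_apply]
  have k5 : x5 ∈ RGD.Sup X (S cs h 1 i j) := by
    refine RGD.le_Sup ?_ S4.2.2.1
    refine ⟨⟨_, i, rfl⟩, 1, 1, l, one_pos, one_pos, hl0, ?_⟩
    rw [b5, one_smul, map_one, Module.End.one_apply, Module.End.one_apply]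
  have k2 : y2 ∈ RGD.Sup X (S cs h 1 i j) := RGD.Sup_mono (S'_le hij hM2 1) hy2
  have hv : x5⁻¹ * x4⁻¹ * x3⁻¹ * y2 ∈ RGD.Sup X (S cs h 1 i j) :=
    mul_mem (mul_mem (mul_mem (inv_mem k5) (inv_mem k4)) (inv_mem k3)) k2
  have z1 : c ∈ RGD.Sup X Q := by
    have hc0 : c ∈ X (-sr i) := by have := H.2.1; rwa [map_one, Module.End.one_apply] at this
    refine RGD.le_Sup (hPos _ (isRoot_sr cs h i).neg 1 (-1) 0 one_pos (by norm_num) ?_) hc0
    rw [one_smul, neg_smul, one_smul, zero_smul, add_zero]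
  have z2 : m⁻¹ * f * m ∈ RGD.Sup X Q := by
    refine RGD.le_Sup (hPos _ (IsRoot.neg ⟨_, j, rfl⟩) 1 (-k) (-1) one_pos (neg_neg_of_pos hk0) ?_) S2.1.2.1
    rw [b2, one_smul, neg_smul, neg_smul, neg_add]
  have z3 : (m⁻¹ * N * m)⁻¹ * f2 * (m⁻¹ * N * m) ∈ RGD.Sup X Q := by
    refine RGD.le_Sup (hPos _ (IsRoot.neg ⟨_, i, rfl⟩) 1 (-2) (-l) one_pos (by norm_num) ?_) S3.1.2.1
    rw [b3, one_smul, neg_smul, neg_smul, neg_add]
  have z4 : y6 ∈ RGD.Sup X Q := by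
    refine RGD.Sup_mono ?_ S5.2.2.2.1
    rintro z ⟨hz, m', a', b', hm, ha, hb, e⟩
    refine hPos z hz m' (-(b' * k)) (a' - 2 * b') hm (by nlinarith [mul_pos hb hk0]) ?_
    rw [e, b6, rep_mul_apply, rep_simple_sr, map_neg, b4]
    funext z
    simp only [Pi.add_apply, Pi.smul_apply, smul_eq_mul, Pi.neg_apply]
    ring
  have hz : c * (m⁻¹ * f * m) * ((m⁻¹ * N * m)⁻¹ * f2 * (m⁻¹ * N * m)) * y6⁻¹ ∈ RGD.Sup X Q :=
    mul_mem (mul_mem (mul_mem z1 z2) z3) (inv_mem z4)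
  obtain ⟨v, hv'⟩ : ∃ v, v = x5⁻¹ * x4⁻¹ * x3⁻¹ * y2 := ⟨_, rfl⟩
  obtain ⟨z', hz'⟩ : ∃ z', z' = c * (m⁻¹ * f * m) * ((m⁻¹ * N * m)⁻¹ * f2 * (m⁻¹ * N * m)) * y6⁻¹ := ⟨_, rfl⟩
  rw [← hv'] at hv
  rw [← hz'] at hz
  have key : x6 = v * d * z' := by
    have g3 : y3 = x3⁻¹ * (y2 * d) := by rw [q2]; group
    have g4 : y4 = x4⁻¹ * (y3 * c) := by rw [q3]; group
    have g5 : y5 = x5⁻¹ * (y4 * (m⁻¹ * f * m)) := by rw [q4]; group
    have g6 : x6 = y5 * ((m⁻¹ * N * m)⁻¹ * f2 * (m⁻¹ * N * m)) * y6⁻¹ := by rw [q5]; group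
    rw [g6, g5, g4, g3, hv', hz']
    simp only [mul_assoc]
  have hroot : ∀ (g : W) (z : I → ℤ), IsRoot cs h z → IsRoot cs h (rep cs h g z) := fun g z hz => hz.act g
  have w6j : rep cs h w6⁻¹ (sr j) = sr j := by
    rw [ej, v6]; congr 2 <;> ring
  have w7j : rep cs h (w6 * cs.simple j)⁻¹ (sr j) = -sr j := by
    rw [ej, v7]
    funext z
    simp only [Pi.add_apply, Pi.smul_apply, smul_eq_mul, Pi.neg_apply]
    ring
  have hv1 : v = 1 := by
    refine sep2 R w6 (P := insert (sr j) Q) ?_ hNeg ?_ hv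
    · rintro z (rfl | hz)
      · exact ⟨isRoot_sr cs h j, by rw [w6j]; exact sr_nonneg j⟩
      · rw [hQ] at hz
        exact ⟨hz.1, hz.2.1⟩
    · have e2 : v = x6 * z'⁻¹ * d⁻¹ := by rw [key]; group
      rw [e2]
      exact mul_mem (mul_mem (RGD.le_Sup (Set.mem_insert _ _) hx6)
        (inv_mem (RGD.Sup_mono (Set.subset_insert _ _) hz))) (inv_mem (RGD.le_Sup (Set.mem_insert _ _) hd))
  rw [hv1, one_mul] at key
  have hz1 : z' = 1 := by
    refine sep2 R (w6 * cs.simple j) (P := Q) (N := {sr j}) ?_ ?_ hz ?_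
    · rintro z hz
      rw [hQ] at hz
      exact ⟨hz.1, hz.2.2⟩
    · rintro z rfl
      exact ⟨isRoot_sr cs h j, by rw [w7j]; exact neg_nonpos.2 (sr_nonneg j)⟩
    · have e2 : z' = d⁻¹ * x6 := by rw [key]; group
      rw [e2]
      exact mul_mem (inv_mem (RGD.le_Sup (Set.mem_singleton _) hd)) (RGD.le_Sup (Set.mem_singleton _) hx6)
  rw [hz1, mul_one] at key
  subst key
  have h9 := H'.uniq' R S6.1 (by rw [b6, map_one, Module.End.one_apply])
  clear hv1 hz1 hz hv hNeg hPos hQ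
  obtain ⟨m2, hm2⟩ : ∃ m2, m2 = m⁻¹ * N * m := ⟨_, rfl⟩
  rw [← hm2] at h9
  obtain ⟨m3, hm3⟩ : ∃ m3, m3 = m2⁻¹ * m * m2 := ⟨_, rfl⟩
  rw [← hm3] at h9
  obtain ⟨m4, hm4⟩ : ∃ m4, m4 = m3⁻¹ * m2 * m3 := ⟨_, rfl⟩
  rw [← hm4] at h9
  obtain ⟨m5, hm5⟩ : ∃ m5, m5 = m4⁻¹ * m3 * m4 := ⟨_, rfl⟩
  rw [← hm5] at h9
  exact six_of hm2 hm3 hm4 hm5 rfl h9

end

end Cfsg.Agent.H40.MU
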